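import Cfsg.Agent.H9.J3.Check
import Cfsg.Agent.H15.J3.Simple

/-!
The action of `J₃` on 6156 points: the orbit of a subspace of dimension four of `F⁹`.
-/

set_option autoImplicit false
set_option linter.unusedSectionVars false

namespace Cfsg.Agent.H9.J3

open Cfsg.Spor Matrix Cfsg.Agent.H16 Cfsg.Agent.H15.J3

theorem blt_lt {a b : ℕ} (h : Nat.blt a b = true) : a < b := Nat.ble_eq.mp h

attribute [local irreducible] code row piv nxt par srt

theorem all_of_allFrom {p : ℕ → Bool} {n : ℕ} (h : allFrom p n 0 = true) {i : ℕ} (hi : i < n) :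
    p i = true := allFrom_spec h i (Nat.zero_le _) (by omega)

theorem piv_lt {k : ℕ} (hk : k < 6156) {i : ℕ} (hi : i < 4) : piv k i < 9 := by
  have h := orb_all hk
  simp only [orbCheck, basisOK, Bool.and_eq_true] at h
  have h' := all_of_allFrom h.1.1 hi
  simp only [rowOK, Bool.and_eq_true] at h'
  exact blt_lt h'.1

theorem piv_strictMono {k : ℕ} (hk : k < 6156) {i j : ℕ} (hij : i < j) (hj : j < 4) :
    piv k i < piv k j := by
  have h := orb_all hk
  simp only [orbCheck, basisOK, Bool.and_eq_true] at h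
  have s : ∀ i, i < 3 → piv k i < piv k (i + 1) := fun i hi => blt_lt (all_of_allFrom h.1.2 hi)
  have h01 : piv k 0 < piv k 1 := s 0 (by norm_num)
  have h12 : piv k 1 < piv k 2 := s 1 (by norm_num)
  have h23 : piv k 2 < piv k 3 := s 2 (by norm_num)
  interval_cases j <;> interval_cases i <;> omega

theorem testBit_mask513 (m t : ℕ) (ht : t < 9) (hm : m < 2 ^ 9) :
    (513 * m).testBit t = m.testBit t ∧ (513 * m).testBit (9 + t) = m.testBit t := by
  have e : 513 * m = 2 ^ 9 * m + m := by omega
  rw [e, Nat.testBit_two_pow_mul_add _ hm, Nat.testBit_two_pow_mul_add _ hm]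
  simp [ht, show ¬ 9 + t < 9 by omega]

/-- A function increasing along a sorting of `0, …, N - 1` is injective there. -/
theorem injOn_of_sorted {N : ℕ} (s c : ℕ → ℕ)
    (h : ∀ j, j + 1 < N → s j < N ∧ s (j + 1) < N ∧ c (s j) < c (s (j + 1))) {k m : ℕ} (hk : k < N)
    (hm : m < N) (he : c k = c m) : k = m := by
  rcases Nat.lt_or_ge N 2 with hN | hN
  · omega
  obtain ⟨n, rfl⟩ : ∃ n, N = n + 1 := ⟨N - 1, by omega⟩
  have hlt : ∀ j, j < n + 1 → s j < n + 1 := fun j hj => by
    rcases Nat.lt_or_ge (j + 1) (n + 1) with h' | h'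
    · exact (h j h').1
    · have := (h (j - 1) (by omega)).2.1
      rwa [show j - 1 + 1 = j by omega] at this
  let f : Fin (n + 1) → Fin (n + 1) := fun j => ⟨s j, hlt j j.2⟩
  have hmono : StrictMono (fun j : Fin (n + 1) => c (f j)) :=
    Fin.strictMono_iff_lt_succ.2 fun j => (h j (by omega)).2.2
  have hb : Function.Surjective f := Finite.surjective_of_injective fun a b hab =>
    hmono.injective (congrArg (fun x : Fin (n + 1) => c x) hab)
  obtain ⟨a, ha⟩ := hb ⟨k, hk⟩
  obtain ⟨b, hb'⟩ := hb ⟨m, hm⟩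
  have : a = b := hmono.injective (by simp only [ha, hb', he])
  exact congrArg Fin.val (ha.symm.trans ((congrArg f this).trans hb'))

section

variable {F : Type*} [Field F] [Fintype F] {ω : F} (hG : Good F ω)
include hG

variable (ω) in
/-- The vector of row `i`. -/
noncomputable def rowv (k i : ℕ) : F9 → F := val ω (row k i)

/-- The coordinates before the pivot vanish. -/
theorem rowv_before {k : ℕ} (hk : k < 6156) {i : ℕ} (hi : i < 4) {t : ℕ} (ht : t < piv k i) :
    rowv ω k i (pt t) = 0 := by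
  have hp := piv_lt hk hi
  have h := orb_all hk
  simp only [orbCheck, basisOK, Bool.and_eq_true] at h
  have h' := all_of_allFrom h.1.1 hi
  simp only [rowOK, Bool.and_eq_true] at h'
  have e : row k i &&& 513 * (2 ^ piv k i - 1) = 0 := Nat.eq_of_beq_eq_true h'.2.1
  have hm : 2 ^ piv k i - 1 < 2 ^ 9 := by
    have : 2 ^ piv k i ≤ 2 ^ 9 := Nat.pow_le_pow_right (by norm_num) hp.le
    omega
  obtain ⟨m1, m2⟩ := testBit_mask513 (2 ^ piv k i - 1) t (by omega) hm
  have hb : (2 ^ piv k i - 1).testBit t = true := by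
    rw [Nat.testBit_two_pow_sub_one]; simp [ht]
  have e1 := congrArg (fun x => Nat.testBit x t) e
  have e2 := congrArg (fun x => Nat.testBit x (9 + t)) e
  simp only [Nat.testBit_and, m1, m2, hb, Bool.and_true, Nat.zero_testBit] at e1 e2
  simp only [rowv, val, idx_pt (show t < 9 by omega), e1, e2, cf]
  simp

/-- The coordinates at the pivots form a unit matrix. -/
theorem rowv_piv {k : ℕ} (hk : k < 6156) {i l : ℕ} (hi : i < 4) (hl : l < 4) :
    rowv ω k i (pt (piv k l)) = if i = l then 1 else 0 := by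
  have hp := piv_lt hk hl
  have h := orb_all hk
  simp only [orbCheck, basisOK, Bool.and_eq_true] at h
  have h' := all_of_allFrom h.1.1 hi
  simp only [rowOK, Bool.and_eq_true] at h'
  have e := Nat.eq_of_beq_eq_true (all_of_allFrom h'.2.2 hl)
  change row k i &&& 513 * 2 ^ piv k l = _ at e
  obtain ⟨m1, m2⟩ := testBit_mask513 (2 ^ piv k l) (piv k l) hp
    (Nat.pow_lt_pow_right (by norm_num) hp)
  have e1 := congrArg (fun x => Nat.testBit x (piv k l)) e
  have e2 := congrArg (fun x => Nat.testBit x (9 + piv k l)) e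
  simp only [Nat.testBit_and, m1, m2, Nat.testBit_two_pow_self, Bool.and_true] at e1 e2
  by_cases hil : i = l
  · subst hil
    have hb : Nat.beq i i = true := Nat.beq_refl i
    rw [hb] at e1 e2
    change _ = Nat.testBit (2 ^ piv k i) _ at e1
    change _ = Nat.testBit (2 ^ piv k i) _ at e2
    rw [Nat.testBit_two_pow_self] at e1
    rw [Nat.testBit_two_pow] at e2
    simp only [rowv, val, idx_pt hp, e1, e2, cf]
    simp
  · have hb : Nat.beq i l = false := by
      rw [← Bool.not_eq_true]; exact fun hb => hil (Nat.eq_of_beq_eq_true hb)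
    rw [hb] at e1 e2
    change _ = Nat.testBit 0 _ at e1
    change _ = Nat.testBit 0 _ at e2
    rw [Nat.zero_testBit] at e1 e2
    simp only [rowv, val, idx_pt hp, e1, e2, cf, hil]
    simp

variable (ω) in
/-- Subspace `k`. -/
noncomputable def sub (k : ℕ) : Submodule F (F9 → F) :=
  Submodule.span F (Set.range fun i : Fin 4 => rowv ω k i)

theorem sum_piv {k : ℕ} (hk : k < 6156) (c : Fin 4 → F) (l : Fin 4) :
    (∑ i, c i • rowv ω k i) (pt (piv k l)) = c l := by
  rw [Finset.sum_apply, Finset.sum_eq_single l]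
  · simp [rowv_piv hG hk l.2 l.2]
  · intro i _ hil
    simp [rowv_piv hG hk i.2 l.2, Fin.val_ne_of_ne hil]
  · intro h; exact absurd (Finset.mem_univ l) h

theorem finrank_sub {k : ℕ} (hk : k < 6156) : Module.finrank F (sub ω k) = 4 := by
  have hli : LinearIndependent F (fun i : Fin 4 => rowv ω k i) := by
    rw [Fintype.linearIndependent_iff]
    intro c hc l
    have := sum_piv hG hk c l
    rw [hc] at this
    simpa using this.symm
  rw [sub, finrank_span_eq_card hli, Fintype.card_fin]

/-- The pivots are the possible leading positions. -/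
theorem lead {k : ℕ} (hk : k < 6156) {x : F9 → F} (hx : x ∈ sub ω k) {t : ℕ} (ht : t < 9)
    (hne : x (pt t) ≠ 0) (hbefore : ∀ s < t, x (pt s) = 0) : ∃ i : Fin 4, piv k i = t := by
  obtain ⟨c, rfl⟩ := (Submodule.mem_span_range_iff_exists_fun F).1 hx
  by_contra hno
  push Not at hno
  refine hne ?_
  rw [Finset.sum_apply]
  refine Finset.sum_eq_zero fun i _ => ?_
  rcases Nat.lt_or_ge t (piv k i) with h | h
  · simp [rowv_before hG hk i.2 h]
  · have hlt : piv k i < t := lt_of_le_of_ne h (hno i)
    have h0 := hbefore _ hlt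
    rw [sum_piv hG hk] at h0
    simp [h0]

theorem piv_eq {k m : ℕ} (hk : k < 6156) (hm : m < 6156) (h : sub ω k = sub ω m) :
    ∀ i : Fin 4, piv k i = piv m i := by
  have key : ∀ a b : ℕ, a < 6156 → b < 6156 → sub ω a = sub ω b →
      ∀ i : Fin 4, ∃ j : Fin 4, piv b j = piv a i := by
    intro a b ha hb hab i
    refine lead hG hb (x := rowv ω a i) ?_ (piv_lt ha i.2) ?_
      fun s hs => rowv_before hG ha i.2 hs
    · rw [← hab]; exact Submodule.subset_span ⟨i, rfl⟩
    · rw [rowv_piv hG ha i.2 i.2]; simp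
  intro i
  have hk' : StrictMono (fun i : Fin 4 => piv k i) := fun a b hab => piv_strictMono hk hab b.2
  have hm' : StrictMono (fun i : Fin 4 => piv m i) := fun a b hab => piv_strictMono hm hab b.2
  have hr : Set.range (fun i : Fin 4 => piv k i) = Set.range (fun i : Fin 4 => piv m i) := by
    ext t
    constructor
    · rintro ⟨i, rfl⟩; exact key k m hk hm h i
    · rintro ⟨i, rfl⟩; exact key m k hm hk h.symm i
  exact congrFun ((StrictMono.range_inj hk' hm').1 hr) i

theorem row_lt (k i : ℕ) : row k i < 2 ^ 18 := by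
  unfold row bitField
  exact lt_of_le_of_lt Nat.and_le_right (by norm_num)

theorem row_eq {k m : ℕ} (hk : k < 6156) (hm : m < 6156) (h : sub ω k = sub ω m) (i : Fin 4) :
    row k i = row m i := by
  refine val_inj hG (row_lt hG k i) (row_lt hG m i) ?_
  show rowv ω k i = rowv ω m i
  have hmem : rowv ω k i ∈ sub ω m := h ▸ Submodule.subset_span ⟨i, rfl⟩
  obtain ⟨c, hc⟩ := (Submodule.mem_span_range_iff_exists_fun F).1 hmem
  rw [← hc, Finset.sum_eq_single i]
  · have := sum_piv hG hm c i
    rw [hc, ← piv_eq hG hk hm h i, rowv_piv hG hk i.2 i.2] at this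
    rw [← this]; simp
  · intro l _ hli
    have := sum_piv hG hm c l
    rw [hc, ← piv_eq hG hk hm h l, rowv_piv hG hk i.2 l.2, if_neg (Fin.val_ne_of_ne (Ne.symm hli))]
      at this
    rw [← this, zero_smul]
  · intro h; exact absurd (Finset.mem_univ i) h

theorem sub_inj {k m : ℕ} (hk : k < 6156) (hm : m < 6156) (h : sub ω k = sub ω m) : k = m := by
  have hkey : key k = key m := by
    have h0 : row k 0 = row m 0 := row_eq hG hk hm h 0
    have h1 : row k 1 = row m 1 := row_eq hG hk hm h 1
    have h2 : row k 2 = row m 2 := row_eq hG hk hm h 2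
    have h3 : row k 3 = row m 3 := row_eq hG hk hm h 3
    have g0 : piv k 0 = piv m 0 := piv_eq hG hk hm h 0
    have g1 : piv k 1 = piv m 1 := piv_eq hG hk hm h 1
    have g2 : piv k 2 = piv m 2 := piv_eq hG hk hm h 2
    have g3 : piv k 3 = piv m 3 := piv_eq hG hk hm h 3
    unfold key
    rw [h0, h1, h2, h3, g0, g1, g2, g3]
  have hs : ∀ j, j + 1 < 6156 → srt j < 6156 ∧ srt (j + 1) < 6156 ∧
      key (srt j) < key (srt (j + 1)) := fun j hj => by
    have hc := allFrom_spec srt_all j (Nat.zero_le _) (by omega)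
    simp only [srtCheck, Bool.and_eq_true] at hc
    exact ⟨blt_lt hc.1, blt_lt hc.2.1, blt_lt hc.2.2⟩
  exact injOn_of_sorted srt key hs hk hm hkey

theorem val_addRow (x k i acc : ℕ) :
    val ω (addRow x k i acc) = val ω acc +
      cf ω (x.testBit (piv k i)) (x.testBit (9 + piv k i)) • rowv ω k i := by
  show val ω (pickF (Nat.land (Nat.shiftRight x (piv k i)) 1)
    (Nat.land (Nat.shiftRight x (9 + piv k i)) 1) acc (row k i)) = _
  rw [pickF_eq, val_xor hG, val_pick hG, rowv]

theorem val_spanEl (x k : ℕ) : val ω (spanEl x k) ∈ sub ω k := by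
  simp only [spanEl, val_addRow hG, val_zero]
  simp only [zero_add]
  refine add_mem (add_mem (add_mem ?_ ?_) ?_) ?_
  all_goals refine Submodule.smul_mem _ _ (Submodule.subset_span ?_)
  exacts [⟨0, rfl⟩, ⟨1, rfl⟩, ⟨2, rfl⟩, ⟨3, rfl⟩]

theorem g7_length : ∀ j : Fin 7, (g7 j).length = 9 := by decide +kernel

theorem nxt_lt {k j : ℕ} (hk : k < 6156) (hj : j < 7) : nxt k j < 6156 := by
  have h := orb_all hk
  simp only [orbCheck, Bool.and_eq_true] at h
  have h' := all_of_allFrom h.2 hj
  rw [stepOK, forceNat_eq, Bool.and_eq_true] at h'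
  exact blt_lt h'.1

/-- A generator maps subspace `k` onto subspace `nxt k j`. -/
theorem map_sub {k j : ℕ} (hk : k < 6156) (hj : j < 7) :
    (sub ω k).map (toMat ω (g7 j)).mulVecLin = sub ω (nxt k j) := by
  have h := orb_all hk
  simp only [orbCheck, Bool.and_eq_true] at h
  have h' := all_of_allFrom h.2 hj
  rw [stepOK, forceNat_eq, Bool.and_eq_true] at h'
  have hinj : Function.Injective (toMat ω (g7 j)).mulVecLin := by
    rw [Matrix.coe_mulVecLin]
    refine Matrix.mulVec_injective_of_isUnit ⟨⟨toMat ω (g7 j), toMat ω (Data.gen7Inv.getD j []),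
        by rw [← toMat_mm hG, (inv_ok ⟨j, hj⟩).1, toMat_idM hG],
        by rw [← toMat_mm hG, (inv_ok ⟨j, hj⟩).2, toMat_idM hG]⟩, rfl⟩
  refine Submodule.eq_of_le_of_finrank_eq ?_ ?_
  · rw [sub, Submodule.map_span, Submodule.span_le]
    rintro _ ⟨_, ⟨i, rfl⟩, rfl⟩
    have hx := all_of_allFrom h'.2 i.2
    rw [forceNat_eq] at hx
    have hx' := Nat.eq_of_beq_eq_true hx
    rw [SetLike.mem_coe, Matrix.mulVecLin_apply]
    show toMat ω (g7 j) *ᵥ val ω (row k i) ∈ _
    rw [← val_app hG,
      ← appF_eq (g7_length hG ⟨j, hj⟩), ← hx']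
    exact val_spanEl hG _ _
  · rw [← (Submodule.equivMapOfInjective _ hinj (sub ω k)).finrank_eq, finrank_sub hG hk,
      finrank_sub hG (nxt_lt hG hk hj)]

theorem ev_sub {w : List ℕ} (hw : small 7 w = true) {k : ℕ} (hk : k < 6156) :
    ∃ m < 6156, (sub ω k).map (toMat ω (ev Data.gen7 w)).mulVecLin = sub ω m := by
  induction w with
  | nil => exact ⟨k, hk, by rw [toMat_ev_nil hG, Matrix.mulVecLin_one, Submodule.map_id]⟩
  | cons j w ih =>
    simp only [small, List.all_cons, Bool.and_eq_true, decide_eq_true_eq] at hw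
    obtain ⟨m, hm, e⟩ := ih (by simp only [small]; exact hw.2)
    refine ⟨nxt m j, nxt_lt hG hm hw.1, ?_⟩
    rw [toMat_ev_cons hG, Matrix.mulVecLin_mul, Submodule.map_comp, e]
    exact map_sub hG hm hw.1

theorem exists_image (g : ↥(threeJ3 F ω)) (k : Fin 6156) :
    ∃ m : Fin 6156, (sub ω k).map (g.1 : Matrix F9 F9 F).mulVecLin = sub ω m := by
  obtain ⟨w, hw, e⟩ := (mem_threeJ3_iff hG g.1).1 g.2
  obtain ⟨m, hm, h⟩ := ev_sub hG hw k.2
  exact ⟨⟨m, hm⟩, e ▸ h⟩

/-- The image of a point. -/
noncomputable def act (g : ↥(threeJ3 F ω)) (k : Fin 6156) : Fin 6156 := (exists_image hG g k).choose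

theorem act_spec (g : ↥(threeJ3 F ω)) (k : Fin 6156) :
    (sub ω k).map (g.1 : Matrix F9 F9 F).mulVecLin = sub ω (act hG g k) :=
  (exists_image hG g k).choose_spec

theorem act_eq (g : ↥(threeJ3 F ω)) {k m : Fin 6156}
    (h : (sub ω k).map (g.1 : Matrix F9 F9 F).mulVecLin = sub ω m) : act hG g k = m :=
  Fin.ext (sub_inj hG (Fin.is_lt _) m.2 ((act_spec hG g k).symm.trans h))

/-- The action on the 6156 subspaces. -/
@[reducible] noncomputable def action : MulAction ↥(threeJ3 F ω) (Fin 6156) where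
  smul := act hG
  one_smul k := act_eq hG 1 (by simp)
  mul_smul g h k := act_eq hG (g * h) (by
    show (sub ω k).map ((g.1 * h.1 : GL F9 F) : Matrix F9 F9 F).mulVecLin =
      sub ω (act hG g (act hG h k))
    rw [Units.val_mul, Matrix.mulVecLin_mul, Submodule.map_comp, act_spec hG h k,
      act_spec hG g (act hG h k)])

theorem action_transitive (k : Fin 6156) :
    ∃ g : ↥(threeJ3 F ω), act hG g ⟨0, by norm_num⟩ = k := by
  obtain ⟨k, hk⟩ := k
  induction k using Nat.strong_induction_on with
  | _ k ih =>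
    by_cases h0 : k = 0
    · subst h0
      exact ⟨1, act_eq hG 1 (by simp)⟩
    have hc := allFrom_spec tree_all k (by omega) (by omega)
    rw [treeCheck, forceNat_eq] at hc
    simp only [Bool.and_eq_true] at hc
    have h1 : par k / 8 < k := blt_lt hc.1
    have h2 : par k % 8 < 7 := blt_lt hc.2.1
    have h3 : nxt (par k / 8) (par k % 8) = k := Nat.eq_of_beq_eq_true hc.2.2
    obtain ⟨g, hg⟩ := ih _ h1 (by omega)
    obtain ⟨s, hs⟩ := exists_el hG (g7_mem_hSet hG h2)
    refine ⟨s * g, act_eq hG _ ?_⟩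
    rw [mat_mul hG, Matrix.mulVecLin_mul, Submodule.map_comp, act_spec hG g, hg, hs]
    show (sub ω (par k / 8)).map _ = _
    rw [map_sub hG (by omega) h2, h3]

/-- `J₃` as a transitive group of degree 6156. -/
theorem exists_perm_group : ∃ H : Subgroup (Equiv.Perm (Fin 6156)), IsSimpleGroup H ∧
    Nat.card H = 50232960 ∧ MulAction.IsPretransitive H (Fin 6156) ∧
    Nat.card (MulAction.stabilizer H (0 : Fin 6156)) = 8160 := by
  letI := action hG
  let φ := MulAction.toPermHom ↥(threeJ3 F ω) (Fin 6156)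
  have hsimp := isSimple_J3 hG
  have hker : φ.ker = Subgroup.center ↥(threeJ3 F ω) := by
    refine le_antisymm ?_ fun g hg => ?_
    · let N := φ.ker.map (QuotientGroup.mk' (Subgroup.center ↥(threeJ3 F ω)))
      have hN : N.Normal := (MonoidHom.normal_ker φ).map _ (QuotientGroup.mk'_surjective _)
      rcases hsimp.eq_bot_or_eq_top_of_normal N hN with h | h
      · intro g hg
        have : QuotientGroup.mk' (Subgroup.center ↥(threeJ3 F ω)) g ∈ N :=
          Subgroup.mem_map_of_mem _ hg
        rw [h, Subgroup.mem_bot, QuotientGroup.mk'_apply, QuotientGroup.eq_one_iff] at this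
        exact this
      · exfalso
        obtain ⟨g, hg⟩ := action_transitive hG ⟨1, by norm_num⟩
        have hgN : QuotientGroup.mk' (Subgroup.center ↥(threeJ3 F ω)) g ∈ N := h ▸ Subgroup.mem_top _
        obtain ⟨x, hx, e⟩ := hgN
        have hz : x⁻¹ * g ∈ Subgroup.center ↥(threeJ3 F ω) := QuotientGroup.eq.1 e
        have hfix : ∀ z ∈ Subgroup.center ↥(threeJ3 F ω), ∀ k : Fin 6156, z • k = k := by
          intro z hz k
          obtain ⟨c, hc, ec⟩ := center_scalar hG hz
          refine act_eq hG z ?_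
          rw [ec]
          have e' : (c • (1 : Matrix F9 F9 F)).mulVecLin = c • LinearMap.id := by
            apply LinearMap.ext; intro v; simp [Matrix.smul_mulVec]
          rw [e', Submodule.map_smul _ _ _ hc, Submodule.map_id]
        have hx' : φ x = 1 := hx
        have : g • (⟨0, by norm_num⟩ : Fin 6156) = ⟨0, by norm_num⟩ := by
          rw [show g = x * (x⁻¹ * g) by group, mul_smul, hfix _ hz]
          exact Equiv.ext_iff.1 hx' _
        rw [show g • (⟨0, by norm_num⟩ : Fin 6156) = act hG g ⟨0, by norm_num⟩ from rfl, hg] at this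
        exact absurd (congrArg Fin.val this) (by norm_num)
    · refine MonoidHom.mem_ker.2 (Equiv.ext fun k => ?_)
      obtain ⟨c, hc, ec⟩ := center_scalar hG hg
      refine act_eq hG g ?_
      rw [ec]
      have e' : (c • (1 : Matrix F9 F9 F)).mulVecLin = c • LinearMap.id := by
        apply LinearMap.ext; intro v; simp [Matrix.smul_mulVec]
      rw [e', Submodule.map_smul _ _ _ hc, Submodule.map_id]
      rfl
  let e : J3 F ω ≃* φ.range :=
    (QuotientGroup.quotientMulEquivOfEq hker.symm).trans (QuotientGroup.quotientKerEquivRange φ)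
  haveI := hsimp
  have hcard : Nat.card φ.range = 50232960 := by
    rw [← Nat.card_congr e.toEquiv, card_J3 hG]
  haveI htr : MulAction.IsPretransitive φ.range (Fin 6156) := by
    refine MulAction.IsPretransitive.mk fun a b => ?_
    obtain ⟨g, hg⟩ := action_transitive hG a
    obtain ⟨h, hh⟩ := action_transitive hG b
    refine ⟨⟨φ (h * g⁻¹), ⟨_, rfl⟩⟩, ?_⟩
    show (h * g⁻¹) • a = b
    rw [mul_smul, inv_smul_eq_iff.2 (show a = g • _ from hg.symm)]
    exact hh
  refine ⟨φ.range, e.symm.isSimpleGroup, hcard, htr, ?_⟩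
  haveI : Finite φ.range := Nat.finite_of_card_ne_zero (by rw [hcard]; norm_num)
  have h1 := (MulAction.stabilizer φ.range (0 : Fin 6156)).card_mul_index
  rw [MulAction.index_stabilizer_of_transitive φ.range (0 : Fin 6156), hcard, Nat.card_eq_fintype_card (α := Fin 6156),
    Fintype.card_fin] at h1
  omega

end

end Cfsg.Agent.H9.J3
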