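import Cfsg.Agent.H15.J3.Fast
import Cfsg.Agent.H15.J3.Group
import Cfsg.Agent.H9.J3.OrbData

/-!
Kernel checks for the orbit of 6156 subspaces of dimension four of `3·J₃`.
-/

set_option autoImplicit false

namespace Cfsg.Agent.H9.J3

open Cfsg.Agent.H16 Cfsg.Agent.H15.J3

/-- Packed subspace `k`. -/
noncomputable def code (k : ℕ) : ℕ := PArr.get 88 Data.codeArr k

/-- Row `i` of the echelon basis of subspace `k`. -/
noncomputable def row (k i : ℕ) : ℕ := bitField (code k) (Nat.mul 18 i) 18

/-- Pivot `i` of subspace `k`. -/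
noncomputable def piv (k i : ℕ) : ℕ := bitField (code k) (Nat.add 72 (Nat.mul 4 i)) 4

/-- Number of the image of subspace `k` under generator `j`. -/
noncomputable def nxt (k j : ℕ) : ℕ := PArr.get 13 Data.nextArr (Nat.add (Nat.mul k 7) j)

/-- Predecessor in the search tree. -/
noncomputable def par (k : ℕ) : ℕ := PArr.get 16 Data.parArr k

/-- Sorting permutation. -/
noncomputable def srt (k : ℕ) : ℕ := PArr.get 13 Data.srtArr k

/-- Both coefficient bits at position `t`. -/
noncomputable def both (r t : ℕ) : ℕ := Nat.land r (Nat.mul 513 (Nat.pow 2 t))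

/-- Row `i` is in echelon position. -/
noncomputable def rowOK (k i : ℕ) : Bool :=
  and (Nat.blt (piv k i) 9) (and
    (Nat.beq (Nat.land (row k i) (Nat.mul 513 (Nat.sub (Nat.pow 2 (piv k i)) 1))) 0)
    (allFrom (fun l => Nat.beq (both (row k i) (piv k l))
      (Bool.rec 0 (Nat.pow 2 (piv k i)) (Nat.beq i l))) 4 0))

/-- The basis is in reduced echelon form. -/
noncomputable def basisOK (k : ℕ) : Bool :=
  and (allFrom (rowOK k) 4 0)
    (allFrom (fun i => Nat.blt (piv k i) (piv k (Nat.succ i))) 3 0)

/-- Add the multiple of row `i` of subspace `k` read off from `x` at its pivot. -/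
noncomputable def addRow (x k i acc : ℕ) : ℕ :=
  pickF (Nat.land (Nat.shiftRight x (piv k i)) 1)
    (Nat.land (Nat.shiftRight x (Nat.add 9 (piv k i))) 1) acc (row k i)

/-- The element of subspace `k` agreeing with `x` at the pivots. -/
noncomputable def spanEl (x k : ℕ) : ℕ := addRow x k 3 (addRow x k 2 (addRow x k 1 (addRow x k 0 0)))

/-- Generator `j` maps subspace `k` into subspace `nxt k j`. -/
noncomputable def stepOK (k j : ℕ) : Bool :=
  forceNat (nxt k j) fun m => and (Nat.blt m 6156)
    (allFrom (fun i => forceNat (appF (g7 j) (row k i)) fun x => Nat.beq (spanEl x m) x) 4 0)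

/-- All checks at `k`. -/
noncomputable def orbCheck (k : ℕ) : Bool :=
  and (basisOK k) (allFrom (stepOK k) 7 0)

/-- The search tree check at `k`. -/
noncomputable def treeCheck (k : ℕ) : Bool :=
  forceNat (par k) fun e => and (Nat.blt (Nat.div e 8) k)
    (and (Nat.blt (Nat.mod e 8) 7) (Nat.beq (nxt (Nat.div e 8) (Nat.mod e 8)) k))

/-- A number made of the fields of subspace `k`. -/
noncomputable def key (k : ℕ) : ℕ :=
  Nat.add (Nat.add (Nat.add (row k 0) (Nat.shiftLeft (row k 1) 18))
      (Nat.add (Nat.shiftLeft (row k 2) 36) (Nat.shiftLeft (row k 3) 54)))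
    (Nat.add (Nat.add (Nat.shiftLeft (piv k 0) 72) (Nat.shiftLeft (piv k 1) 76))
      (Nat.add (Nat.shiftLeft (piv k 2) 80) (Nat.shiftLeft (piv k 3) 84)))

/-- The sorting permutation increases the keys. -/
noncomputable def srtCheck (k : ℕ) : Bool :=
  and (Nat.blt (srt k) 6156) (and (Nat.blt (srt (Nat.succ k)) 6156)
    (Nat.blt (key (srt k)) (key (srt (Nat.succ k)))))

theorem tree_all : allFrom treeCheck 6155 1 = true := by decide +kernel

theorem srt_all : allFrom srtCheck 6155 0 = true := by decide +kernel

theorem orb_a : allFrom orbCheck 1539 0 = true := by decide +kernel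

theorem orb_b : allFrom orbCheck 1539 1539 = true := by decide +kernel

theorem orb_c : allFrom orbCheck 1539 3078 = true := by decide +kernel

theorem orb_d : allFrom orbCheck 1539 4617 = true := by decide +kernel

theorem orb_all {k : ℕ} (hk : k < 6156) : orbCheck k = true :=
  if h : k < 1539 then allFrom_spec orb_a k (by omega) (by omega)
  else if h' : k < 3078 then allFrom_spec orb_b k (by omega) (by omega)
  else if h'' : k < 4617 then allFrom_spec orb_c k (by omega) (by omega)
  else allFrom_spec orb_d k (by omega) (by omega)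

end Cfsg.Agent.H9.J3
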