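import Cfsg.Agent.H15.J3.Simple
import Cfsg.Prelude.Def_Classical

/-!
`3·J₃` inside `SU₉(2)`: the generators are unitary and have determinant one.
-/

set_option autoImplicit false
set_option linter.unusedSectionVars false

namespace Cfsg.Agent.H9.J3

open Cfsg.Spor Matrix Cfsg.Agent.H15.J3

/-- Frobenius on a pair of bits. -/
def conjBits (p : Bool × Bool) : Bool × Bool := (p.1 ^^ p.2, p.2)

/-- The conjugate transpose of a packed matrix. -/
def starM (M : List ℕ) : List ℕ :=
  (List.range 9).map fun z => ((List.range 9).map fun w =>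
    (bif (conjBits (entryBits M (pt z) (pt w))).1 then 2 ^ w else 0) +
      (bif (conjBits (entryBits M (pt z) (pt w))).2 then 2 ^ (9 + w) else 0)).sum

theorem star_ok : ∀ i : Fin 43, mm (starM (allGens.getD i [])) (allGens.getD i []) = idM ∧
    ∀ w z : F9, entryBits (starM (allGens.getD i [])) w z =
      conjBits (entryBits (allGens.getD i []) z w) := by decide +kernel

/-- The equivalence of the index set with `Fin 9`. -/
def idxEquiv : F9 ≃ Fin 9 where
  toFun z := ⟨idx z, idx_lt z⟩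
  invFun k := pt k
  left_inv z := pt_idx z
  right_inv k := Fin.ext (idx_pt k.2)

section

variable {F : Type} [Field F] [Fintype F] {ω : F} (hG : Good F ω)
include hG

theorem cf_conj (p : Bool × Bool) : cf ω (conjBits p).1 (conjBits p).2 = cf ω p.1 p.2 ^ 2 := by
  obtain ⟨a, b⟩ := p
  have hs := w_sq hG
  have h2 := two_zero hG
  cases a <;> cases b <;> simp [cf, conjBits] <;> grind

theorem sum_sq {ι : Type*} (s : Finset ι) (f : ι → F) : (∑ i ∈ s, f i) ^ 2 = ∑ i ∈ s, f i ^ 2 := by
  classical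
  induction s using Finset.induction with
  | empty => simp
  | insert i s hi ih =>
    rw [Finset.sum_insert hi, Finset.sum_insert hi, add_sq, two_zero hG, zero_mul, zero_mul,
      add_zero, ih]

/-- The standard Hermitian form on `F⁹`. -/
def herm9 (u v : F9 → F) : F := ∑ z, u z * v z ^ 2

theorem gens_unitary {m : Matrix F9 F9 F} (hm : m ∈ j3Gens F ω) (u v : F9 → F) :
    herm9 (m *ᵥ u) (m *ᵥ v) = herm9 u v := by
  obtain ⟨M, hM, rfl⟩ := exists_mem_of_gens hG hm
  obtain ⟨i, hi, rfl⟩ := List.getElem_of_mem hM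
  obtain ⟨h1, h2⟩ := star_ok ⟨i, allGens_length ▸ hi⟩
  rw [← List.getD_eq_getElem _ [] hi]
  simp only at h1 h2
  generalize allGens.getD i [] = M at h1 h2
  have e : (toMat ω (starM M) : Matrix F9 F9 F) = ((toMat ω M).map fun x => x ^ 2)ᵀ := by
    ext w z
    rw [toMat_entry hG, h2, cf_conj hG]; rfl
  have hU : (toMat ω M)ᵀ * (toMat ω M).map (fun x => x ^ 2) = 1 := by
    have := congrArg Matrix.transpose (show toMat ω (starM M) * toMat ω M = (1 : Matrix F9 F9 F) by
      rw [← toMat_mm hG, h1, toMat_idM hG])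
    rwa [e, Matrix.transpose_mul, Matrix.transpose_transpose, Matrix.transpose_one] at this
  have hv : (fun z => (toMat ω M *ᵥ v) z ^ 2) =
      (toMat ω M).map (fun x => x ^ 2) *ᵥ fun z => v z ^ 2 := by
    funext z
    simp only [mulVec, dotProduct, sum_sq hG, mul_pow, Matrix.map_apply]
  show (toMat ω M *ᵥ u) ⬝ᵥ (fun z => (toMat ω M *ᵥ v) z ^ 2) = u ⬝ᵥ fun z => v z ^ 2
  rw [hv, ← Matrix.vecMul_transpose, ← Matrix.dotProduct_mulVec, Matrix.mulVec_mulVec, hU,
    Matrix.one_mulVec]

theorem unitary_mem {g : GL F9 F} (hg : g ∈ threeJ3 F ω) (u v : F9 → F) :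
    herm9 ((g : Matrix F9 F9 F) *ᵥ u) ((g : Matrix F9 F9 F) *ᵥ v) = herm9 u v := by
  have : threeJ3 F ω ≤ preserving (Units.coeHom (Matrix F9 F9 F)) (herm9) :=
    (Subgroup.closure_le _).2 fun x hx => gens_unitary hG hx
  exact this hg u v

theorem det_eq_one {g : GL F9 F} (hg : g ∈ threeJ3 F ω) : (g : Matrix F9 F9 F).det = 1 := by
  classical
  let δ : ↥(threeJ3 F ω) →* Fˣ := Matrix.GeneralLinearGroup.det.comp (threeJ3 F ω).subtype
  have hZ : Subgroup.center ↥(threeJ3 F ω) ≤ δ.ker := by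
    intro z hz
    obtain ⟨c, hc, e⟩ := center_scalar hG hz
    refine MonoidHom.mem_ker.2 (Units.ext ?_)
    simp only [δ, MonoidHom.coe_comp, Function.comp_apply, Subgroup.coe_subtype,
      Matrix.GeneralLinearGroup.val_det_apply, Units.val_one]
    rw [e, Matrix.det_smul, Matrix.det_one, mul_one]
    have h3 : c ^ 3 = 1 := by
      have := FiniteField.pow_card_sub_one_eq_one c hc
      rwa [hG.card] at this
    rw [show Fintype.card F9 = 3 * 3 by rw [Fintype.card_prod, ZMod.card], pow_mul, h3, one_pow]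
  let δ' : J3 F ω →* Fˣ := QuotientGroup.lift _ δ hZ
  haveI := isSimple_J3 hG
  rcases (MonoidHom.normal_ker δ').eq_bot_or_eq_top with h | h
  · have hle := Nat.card_le_card_of_injective δ' ((MonoidHom.ker_eq_bot_iff δ').1 h)
    rw [card_J3 hG, Nat.card_units, Nat.card_eq_fintype_card (α := F), hG.card] at hle
    omega
  · have hm : δ' (QuotientGroup.mk ⟨g, hg⟩) = 1 := MonoidHom.mem_ker.1 (h ▸ Subgroup.mem_top _)
    rw [show δ' (QuotientGroup.mk ⟨g, hg⟩) = δ ⟨g, hg⟩ from QuotientGroup.lift_mk _ _ _] at hm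
    have := congrArg Units.val hm
    simpa only [δ, MonoidHom.coe_comp, Function.comp_apply, Subgroup.coe_subtype,
      Matrix.GeneralLinearGroup.val_det_apply, Units.val_one] using this

/-- `3·J₃` inside `SL₉`. -/
def toSL : ↥(threeJ3 F ω) →* Matrix.SpecialLinearGroup (Fin 9) F where
  toFun g := ⟨Matrix.reindexAlgEquiv F F idxEquiv (g.1 : Matrix F9 F9 F), by
    rw [Matrix.det_reindexAlgEquiv]; exact det_eq_one hG g.2⟩
  map_one' := Subtype.ext (map_one (Matrix.reindexAlgEquiv F F idxEquiv))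
  map_mul' x y := Subtype.ext (map_mul (Matrix.reindexAlgEquiv F F idxEquiv) _ _)

theorem toSL_injective : Function.Injective (toSL hG) := fun x y h =>
  ext_mat hG ((Matrix.reindexAlgEquiv F F idxEquiv).injective (congrArg Subtype.val h))

theorem toSL_mem (g : ↥(threeJ3 F ω)) : toSL hG g ∈ Cfsg.SU 9 F 2 := by
  intro u v
  have h := unitary_mem hG g.2 (fun z => u (idxEquiv z)) fun z => v (idxEquiv z)
  have hmv : ∀ w : Fin 9 → F, ((Matrix.reindexAlgEquiv F F idxEquiv (g.1 : Matrix F9 F9 F)) *ᵥ w) =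
      fun k => ((g.1 : Matrix F9 F9 F) *ᵥ fun z => w (idxEquiv z)) (idxEquiv.symm k) := by
    intro w
    rw [Matrix.reindexAlgEquiv_apply, Matrix.reindex_apply, Matrix.submatrix_mulVec_equiv]
    rfl
  show Cfsg.hermForm 9 F 2 ((Matrix.reindexAlgEquiv F F idxEquiv (g.1 : Matrix F9 F9 F)) *ᵥ u)
    ((Matrix.reindexAlgEquiv F F idxEquiv (g.1 : Matrix F9 F9 F)) *ᵥ v) = _
  rw [hmv, hmv]
  unfold Cfsg.hermForm
  rw [← idxEquiv.sum_comp, ← idxEquiv.sum_comp (fun i => u i * v i ^ 2)]
  simp only [Equiv.symm_apply_apply]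
  exact h

theorem exists_in_SU : ∃ H : Subgroup (Cfsg.SU 9 F 2), Nat.card (Subgroup.center H) = 3 ∧
    IsSimpleGroup (H ⧸ Subgroup.center H) ∧ Nat.card (H ⧸ Subgroup.center H) = 50232960 := by
  let φ : ↥(threeJ3 F ω) →* Cfsg.SU 9 F 2 := (toSL hG).codRestrict _ (toSL_mem hG)
  have hφ : Function.Injective φ := fun x y h => toSL_injective hG (congrArg Subtype.val h)
  let e : ↥(threeJ3 F ω) ≃* φ.range := MonoidHom.ofInjective hφ
  have hc : (Subgroup.center ↥(threeJ3 F ω)).map e.toMonoidHom =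
      Subgroup.center φ.range := by
    ext x
    obtain ⟨y, rfl⟩ := e.surjective x
    rw [Subgroup.mem_map_equiv, MulEquiv.symm_apply_apply, Subgroup.mem_center_iff,
      Subgroup.mem_center_iff]
    constructor
    · intro h z
      obtain ⟨w, rfl⟩ := e.surjective z
      rw [← map_mul, ← map_mul, h w]
    · intro h z
      exact e.injective (by rw [map_mul, map_mul, h (e z)])
  let q : J3 F ω ≃* φ.range ⧸ Subgroup.center φ.range := QuotientGroup.congr _ _ e hc
  haveI := isSimple_J3 hG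
  refine ⟨φ.range, ?_, q.symm.isSimpleGroup, ?_⟩
  · rw [← hc, Subgroup.card_map_of_injective (f := e.toMonoidHom) e.injective, card_center hG]
  · rw [← Nat.card_congr q.toEquiv, card_J3 hG]

end

theorem exists_good : ∃ (F : Type) (_ : Field F) (_ : Fintype F) (ω : F), Good F ω := by
  classical
  haveI : Fact (Nat.Prime 2) := ⟨Nat.prime_two⟩
  haveI : Fintype (GaloisField 2 2) := Fintype.ofFinite _
  have hcard : Fintype.card (GaloisField 2 2) = 4 := by
    rw [← Nat.card_eq_fintype_card, GaloisField.card 2 2 (by norm_num)]; norm_num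
  obtain ⟨ω, -, hω⟩ := Finset.exists_mem_notMem_of_card_lt_card
    (s := ({0, 1} : Finset (GaloisField 2 2))) (t := Finset.univ)
    (lt_of_le_of_lt (Finset.card_insert_le _ _) (by simp [hcard]))
  simp only [Finset.mem_insert, Finset.mem_singleton, not_or] at hω
  have h3 : ω ^ 3 = 1 := by
    have := FiniteField.pow_card_sub_one_eq_one ω hω.1
    rwa [hcard] at this
  refine ⟨GaloisField 2 2, inferInstance, inferInstance, ω, ⟨hcard, ?_⟩⟩
  have : (ω - 1) * (ω ^ 2 + ω + 1) = 0 := by linear_combination h3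
  exact (mul_eq_zero.1 this).resolve_left (sub_ne_zero.2 hω.2)

end Cfsg.Agent.H9.J3
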